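import Mathlib
import Cfsg.Agent.Lib.Helper58.UPair.Defs
import Cfsg.Agent.Lib.Helper45.HermBasic

/-!
# Project UPair (S5984), package [FIXRANK]

For a unitary matrix `x` fixing both members of a totally singular pair and `c` of norm `1`,
the rank of `x - c` is even.  No basis is used: with `Y = x - c`, the adjoint relation
`h (x v) (Y u) = - c^q h (Y v) u` gives `dim (ker Y ∩ D0) ≤ dim (ker Y ∩ D1)` and conversely.
-/

set_option autoImplicit false
open scoped MatrixGroups Matrix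

namespace Cfsg.Agent.Lib.Helper3.UPair

open Cfsg.Agent.Lib.Helper58.UPair Cfsg.Agent.Lib.Helper45

universe u

section

variable {F : Type u} [Field F] [Fintype F] {q n : ℕ}

theorem herm_eq_zero_of_forall (hq : q ≠ 0) (w : Fin n → F)
    (hw : ∀ u, Cfsg.hermForm n F q w u = 0) : w = 0 := by
  funext i
  have h1 := hw (Pi.single i 1)
  rw [herm_single_right hq] at h1
  exact h1

/-- the vectors `w` with `h z w = 0` -/
def perpR (hF : Fintype.card F = q ^ 2) (z : Fin n → F) : Submodule F (Fin n → F) where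
  carrier := {w | Cfsg.hermForm n F q z w = 0}
  add_mem' := by
    intro a b ha hb
    have ha' : Cfsg.hermForm n F q z a = 0 := ha
    have hb' : Cfsg.hermForm n F q z b = 0 := hb
    show Cfsg.hermForm n F q z (a + b) = 0
    rw [herm_add_right hF, ha', hb', add_zero]
  zero_mem' := by
    show Cfsg.hermForm n F q z 0 = 0
    have h1 := herm_smul_right (q := q) n (0 : F) z 0
    rw [zero_smul, zero_pow (by have := two_le_q hF; omega), zero_mul] at h1
    exact h1
  smul_mem' := by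
    intro a w hw
    have hw' : Cfsg.hermForm n F q z w = 0 := hw
    show Cfsg.hermForm n F q z (a • w) = 0
    rw [herm_smul_right, hw', mul_zero]

theorem mem_perpR (hF : Fintype.card F = q ^ 2) (z w : Fin n → F) :
    w ∈ perpR hF z ↔ Cfsg.hermForm n F q z w = 0 := Iff.rfl

/-- one half of the equality of the dimensions of the two parts of the eigenspace -/
theorem half_le (hF : Fintype.card F = q ^ 2) (X : Matrix (Fin n) (Fin n) F)
    (hX : ∀ u v, Cfsg.hermForm n F q (X *ᵥ u) (X *ᵥ v) = Cfsg.hermForm n F q u v)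
    (c : F) (hc : c ^ (q + 1) = 1) (D0 D1 : Submodule F (Fin n → F))
    (h1 : ∀ v ∈ D1, X *ᵥ v ∈ D1)
    (hts : ∀ u ∈ D1, ∀ v ∈ D1, Cfsg.hermForm n F q u v = 0)
    (hsup : D0 ⊔ D1 = ⊤) (hm : Module.finrank F D0 = Module.finrank F D1) :
    Module.finrank F ↥(LinearMap.ker (X - c • (1 : Matrix (Fin n) (Fin n) F)).mulVecLin ⊓ D0) ≤
      Module.finrank F
        ↥(LinearMap.ker (X - c • (1 : Matrix (Fin n) (Fin n) F)).mulVecLin ⊓ D1) := by
  classical
  have hq : q ≠ 0 := by
    have := two_le_q hF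
    omega
  obtain ⟨Y, hY⟩ : ∃ Y : (Fin n → F) →ₗ[F] (Fin n → F),
      Y = (X - c • (1 : Matrix (Fin n) (Fin n) F)).mulVecLin := ⟨_, rfl⟩
  rw [← hY]
  have hYv : ∀ v, Y v = X *ᵥ v - c • v := by
    intro v
    rw [hY, Matrix.mulVecLin_apply, Matrix.sub_mulVec, Matrix.smul_mulVec, Matrix.one_mulVec]
  have hcq : c ^ q * c = 1 := by
    rw [← pow_succ]
    exact hc
  have hc0 : c ^ q ≠ 0 := by
    intro h0
    rw [h0, zero_mul] at hcq
    exact zero_ne_one hcq
  have hadj : ∀ v u, Cfsg.hermForm n F q (X *ᵥ v) (Y u) =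
      -c ^ q * Cfsg.hermForm n F q (Y v) u := by
    intro v u
    rw [hYv, hYv, herm_sub_right hF, herm_smul_right, hX, herm_sub_left, herm_smul_left]
    linear_combination (-(Cfsg.hermForm n F q v u)) * hcq
  obtain ⟨I0, hI0⟩ : ∃ I0 : Submodule F (Fin n → F), I0 = D0.map Y := ⟨_, rfl⟩
  let ι := Module.finBasis F ↥I0
  let Θ : ↥D1 →ₗ[F] (Fin (Module.finrank F ↥I0) → F) :=
    { toFun := fun v j => Cfsg.hermForm n F q (X *ᵥ (v : Fin n → F)) ((ι j : ↥I0) : Fin n → F)
      map_add' := by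
        intro v v'
        funext j
        simp only [Submodule.coe_add, Matrix.mulVec_add, Pi.add_apply]
        rw [herm_add_left]
      map_smul' := by
        intro a v
        funext j
        simp only [Submodule.coe_smul, Matrix.mulVec_smul, Pi.smul_apply, RingHom.id_apply,
          smul_eq_mul]
        rw [herm_smul_left] }
  have hker : (LinearMap.ker Θ).map D1.subtype ≤ LinearMap.ker Y ⊓ D1 := by
    rintro _ ⟨v, hv, rfl⟩
    have hv0 : Θ v = 0 := hv
    refine ⟨?_, v.2⟩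
    show Y (v : Fin n → F) = 0
    have hperp : ∀ w ∈ I0, Cfsg.hermForm n F q (X *ᵥ (v : Fin n → F)) w = 0 := by
      have hle : (⊤ : Submodule F ↥I0) ≤
          (perpR hF (X *ᵥ (v : Fin n → F))).comap I0.subtype := by
        rw [← ι.span_eq, Submodule.span_le]
        rintro _ ⟨j, rfl⟩
        show Cfsg.hermForm n F q (X *ᵥ (v : Fin n → F)) ((ι j : ↥I0) : Fin n → F) = 0
        exact congrFun hv0 j
      intro w hw
      exact hle (Submodule.mem_top : (⟨w, hw⟩ : ↥I0) ∈ (⊤ : Submodule F ↥I0))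
    have hD0 : ∀ u ∈ D0, Cfsg.hermForm n F q (Y (v : Fin n → F)) u = 0 := by
      intro u hu
      have e1 := hperp (Y u) (by rw [hI0]; exact Submodule.mem_map_of_mem hu)
      rw [hadj] at e1
      rcases mul_eq_zero.mp e1 with e2 | e2
      · exact absurd (neg_eq_zero.mp e2) hc0
      · exact e2
    have hYD1 : Y (v : Fin n → F) ∈ D1 := by
      rw [hYv]
      exact D1.sub_mem (h1 _ v.2) (D1.smul_mem c v.2)
    apply herm_eq_zero_of_forall hq
    intro u
    have hu : u ∈ D0 ⊔ D1 := by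
      rw [hsup]
      exact Submodule.mem_top
    obtain ⟨u0, hu0, u1, hu1, rfl⟩ := Submodule.mem_sup.mp hu
    show Cfsg.hermForm n F q (Y (v : Fin n → F)) (u0 + u1) = 0
    rw [herm_add_right hF, hD0 u0 hu0, hts _ hYD1 u1 hu1, add_zero]
  have hrn1 := LinearMap.finrank_range_add_finrank_ker Θ
  have hr1 : Module.finrank F ↥(LinearMap.range Θ) ≤ Module.finrank F ↥I0 := by
    have h2 := Submodule.finrank_le (LinearMap.range Θ)
    rwa [Module.finrank_fin_fun] at h2
  have hk1 : Module.finrank F ↥(LinearMap.ker Θ) ≤ Module.finrank F ↥(LinearMap.ker Y ⊓ D1) := by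
    rw [(Submodule.equivMapOfInjective D1.subtype D1.injective_subtype
      (LinearMap.ker Θ)).finrank_eq]
    exact Submodule.finrank_mono hker
  have hrn0 := LinearMap.finrank_range_add_finrank_ker (Y.comp D0.subtype)
  have hr0 : LinearMap.range (Y.comp D0.subtype) = I0 := by
    rw [LinearMap.range_comp, Submodule.range_subtype, hI0]
  have hk0 : Module.finrank F ↥(LinearMap.ker Y ⊓ D0) ≤
      Module.finrank F ↥(LinearMap.ker (Y.comp D0.subtype)) := by
    have hle : LinearMap.ker Y ⊓ D0 ≤ (LinearMap.ker (Y.comp D0.subtype)).map D0.subtype := by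
      rintro v ⟨hv1, hv2⟩
      exact ⟨⟨v, hv2⟩, hv1, rfl⟩
    rw [(Submodule.equivMapOfInjective D0.subtype D0.injective_subtype
      (LinearMap.ker (Y.comp D0.subtype))).finrank_eq]
    exact Submodule.finrank_mono hle
  rw [hr0] at hrn0
  omega

end

/-- [FIXRANK] -/
theorem pkgFixRank : PkgFixRank.{u} := by
  intro F _ _ q n m D x c hF hD hx hfix hc
  classical
  obtain ⟨hdec, hts⟩ := hD
  have hX : ∀ u v, Cfsg.hermForm n F q ((x : Matrix (Fin n) (Fin n) F) *ᵥ u)
      ((x : Matrix (Fin n) (Fin n) F) *ᵥ v) = Cfsg.hermForm n F q u v := hx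
  have hinv : ∀ i, ∀ v ∈ D i, (x : Matrix (Fin n) (Fin n) F) *ᵥ v ∈ D i := by
    intro i v hv
    have h1 : Matrix.toLin' (x : Matrix (Fin n) (Fin n) F) v ∈
        (D i).map (Matrix.toLin' (x : Matrix (Fin n) (Fin n) F)) := Submodule.mem_map_of_mem hv
    rw [hfix i, Matrix.toLin'_apply] at h1
    exact h1
  have hdisj : D 0 ⊓ D 1 = ⊥ :=
    (hdec.indep.pairwiseDisjoint (by decide : (0 : Fin 2) ≠ 1)).eq_bot
  have hsup : D 0 ⊔ D 1 = ⊤ := by
    rw [eq_top_iff, ← hdec.iSup_eq_top]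
    apply iSup_le
    intro i
    fin_cases i
    · exact le_sup_left
    · exact le_sup_right
  have hsup' : D 1 ⊔ D 0 = ⊤ := by
    rw [sup_comm]
    exact hsup
  have hm01 : Module.finrank F (D 0) = Module.finrank F (D 1) := by
    rw [hdec.finrank_eq, hdec.finrank_eq]
  have hle1 := half_le hF _ hX c hc (D 0) (D 1) (hinv 1) (hts 1) hsup hm01
  have hle2 := half_le hF _ hX c hc (D 1) (D 0) (hinv 0) (hts 0) hsup' hm01.symm
  have hrank : (sh x c).rank = Module.finrank F ↥(LinearMap.range (sh x c).mulVecLin) := rfl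
  rw [hrank]
  obtain ⟨Y, hY⟩ : ∃ Y : (Fin n → F) →ₗ[F] (Fin n → F),
      Y = ((x : Matrix (Fin n) (Fin n) F) - c • (1 : Matrix (Fin n) (Fin n) F)).mulVecLin :=
    ⟨_, rfl⟩
  rw [← hY] at hle1 hle2 ⊢
  have hYv : ∀ v, Y v = (x : Matrix (Fin n) (Fin n) F) *ᵥ v - c • v := by
    intro v
    rw [hY, Matrix.mulVecLin_apply, Matrix.sub_mulVec, Matrix.smul_mulVec, Matrix.one_mulVec]
  have hE : LinearMap.ker Y ≤ (LinearMap.ker Y ⊓ D 0) ⊔ (LinearMap.ker Y ⊓ D 1) := by
    intro v hv
    have hv' : v ∈ D 0 ⊔ D 1 := by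
      rw [hsup]
      exact Submodule.mem_top
    obtain ⟨v0, hv0, v1, hv1, rfl⟩ := Submodule.mem_sup.mp hv'
    have hY0 : Y v0 ∈ D 0 := by
      rw [hYv]
      exact (D 0).sub_mem (hinv 0 _ hv0) ((D 0).smul_mem c hv0)
    have hY1 : Y v1 ∈ D 1 := by
      rw [hYv]
      exact (D 1).sub_mem (hinv 1 _ hv1) ((D 1).smul_mem c hv1)
    have hsum : Y v0 + Y v1 = 0 := by
      rw [← map_add]
      exact hv
    have h0 : Y v0 = 0 := by
      have hmem : Y v0 ∈ D 0 ⊓ D 1 :=
        ⟨hY0, by rw [eq_neg_of_add_eq_zero_left hsum]; exact (D 1).neg_mem hY1⟩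
      rw [hdisj] at hmem
      exact (Submodule.mem_bot F).mp hmem
    have h1 : Y v1 = 0 := by
      rw [h0, zero_add] at hsum
      exact hsum
    exact Submodule.add_mem_sup ⟨h0, hv0⟩ ⟨h1, hv1⟩
  have hEeq : (LinearMap.ker Y ⊓ D 0) ⊔ (LinearMap.ker Y ⊓ D 1) = LinearMap.ker Y :=
    le_antisymm (sup_le inf_le_left inf_le_left) hE
  have hinf : (LinearMap.ker Y ⊓ D 0) ⊓ (LinearMap.ker Y ⊓ D 1) = ⊥ := by
    rw [eq_bot_iff, ← hdisj]
    exact inf_le_inf inf_le_right inf_le_right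
  have hdim := Submodule.finrank_sup_add_finrank_inf_eq (LinearMap.ker Y ⊓ D 0)
    (LinearMap.ker Y ⊓ D 1)
  rw [hEeq, hinf, finrank_bot, add_zero] at hdim
  have hdimV := Submodule.finrank_sup_add_finrank_inf_eq (D 0) (D 1)
  rw [hsup, hdisj, finrank_bot, add_zero, finrank_top, Module.finrank_fin_fun,
    hdec.finrank_eq, hdec.finrank_eq] at hdimV
  have hrn := LinearMap.finrank_range_add_finrank_ker Y
  rw [Module.finrank_fin_fun] at hrn
  exact ⟨m - Module.finrank F ↥(LinearMap.ker Y ⊓ D 0), by omega⟩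

end Cfsg.Agent.Lib.Helper3.UPair
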